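import Cfsg.Agent.Lib.Helper11.Y532c2.K0

set_option autoImplicit false
set_option maxRecDepth 100000

namespace Cfsg.Agent.Lib.Helper11.Y532c2

theorem chkAll : ∀ j < 232, blk fc sc rt.get INV isH j = true :=
  guardB_spec (D := 8) (allR_join b0 b1 (by norm_num)) (by norm_num)

theorem clAll : ∀ jb < 99, cblk fc nc cc (256 * 232) 3159 39402006196394479212279040100143613805079739270465446667948293404245721771497210611414266254884915640806627990306816 gens jb = true :=
  guardB_spec (D := 7) (allR_join c0 c1 (by norm_num)) (by norm_num)

theorem hN0 : getN nc 0 = 0 := by decide +kernel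


end Cfsg.Agent.Lib.Helper11.Y532c2
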