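import Cfsg.Agent.Lib.Helper11.Y532c2.Top

set_option autoImplicit false
set_option maxRecDepth 100000

namespace Cfsg.Agent.Lib.Helper11.Y532c2

set_option maxHeartbeats 0
theorem b0 : allR (guardB 232 (blk fc sc rt.get INV isH)) 7 0 = true := by decide +kernel
theorem b1 : allR (guardB 232 (blk fc sc rt.get INV isH)) 7 128 = true := by decide +kernel
theorem c0 : allR (guardB 99 (cblk fc nc cc 59392 3159 39402006196394479212279040100143613805079739270465446667948293404245721771497210611414266254884915640806627990306816 gens)) 6 0 = true := by decide +kernel
theorem c1 : allR (guardB 99 (cblk fc nc cc 59392 3159 39402006196394479212279040100143613805079739270465446667948293404245721771497210611414266254884915640806627990306816 gens)) 6 64 = true := by decide +kernel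

end Cfsg.Agent.Lib.Helper11.Y532c2
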